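import Mathlib

/-!
# Data of a coset enumeration
-/

set_option autoImplicit false

namespace Cfsg.Agent.Lib.KnownSimple.MultM.U33H

/-- Generated data. -/
def par1 : ℕ := 0x10739ab420e7318a420c4208400
/-- Generated data. -/
def gix1 : ℕ := 0x19049960948
/-- Generated data. -/
def dp1 : ℕ := 0x6db5b6d9248db488
/-- Generated data. -/
def fa1 : ℕ := 0x5273946307b9ac5a9494a0e6290620d2909ba52745b05bde8434ec61d6651925210651086108000
/-- Generated data. -/
def fl1 : ℕ := 0x186049926094a16852091a1691809924
/-- Generated data. -/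
def fb1 : ℕ := 0x41d4751ab420e73198f2908310821046749ce529463083d2f735ac5316b5292941cc52906310400
/-- Generated data. -/
def fk1 : ℕ := 0x342342232434324342243324cb080d50a070e90080c5080f0b0000600900011
/-- Generated data. -/
def po1 : ℕ := 0xafaeadacabaaa9a8a7a6a5a4a3a2a1a09f9e9d9c9b9a99988c80807b7b6e67675b5b5454474242423d3d312a2a252518180c0c0c0c0c050505000000000000
/-- Generated data. -/
def pc1 : ℕ := 0x111111111111111111111111cc050d70c070d50050c7050d0c0000700500000
/-- Generated data. -/
def pa1 : ℕ := 0x911253e98e9b305ca922038999182c5090e182030490d91b772d901d4c915bb90d9012162038d2ebe2c788fe1be8b01f2e62d599822386975efdf2e62d582f7ee95142ec5ab02c555ad76d9012164d0b76058aa54e7090b101c79964c0b0c1e6552552915a4283030402144933a7d3242830309267501d3e7109c242c4071e44706122c99d3044706080c0830a1c7991c182010a1c788080c289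
/-- Generated data. -/
def can1 : ℕ := 0x149ca307b9ac5a928398a418820
/-- Generated data. -/
def tb1_0 : ℕ := 0x13a49ab7a22a8312e20ca730440
/-- Generated data. -/
def fi1_0 : ℕ := 0x25f20e786b67536f1357b6c20a2680c0
/-- Generated data. -/
def tb1_1 : ℕ := 0x109ba34449a7598af6292209060
/-- Generated data. -/
def fi1_1 : ℕ := 0x3e8fb7a4ddf5b4472bd848e32aa46101
/-- Generated data. -/
def tb1_2 : ℕ := 0x1174a904ccec329e46ac4819401
/-- Generated data. -/
def fi1_2 : ℕ := 0x26f61e9c662d54ccfc2e550acb1479c2

end Cfsg.Agent.Lib.KnownSimple.MultM.U33H
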