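import Cfsg.Agent.Lib.KnownSimple.MultM.U43L.Sub
import Cfsg.Agent.Lib.KnownSimple.MultM.U33H.Bound

/-!
# The natural representation
-/

set_option autoImplicit false

namespace Cfsg.Agent.Lib.KnownSimple.MultM.U33H

open Cfsg Cfsg.Spor Cfsg.Agent.Lib.Compute Cfsg.Agent.Lib.KnownSimple.PE Cfsg.Agent.Lib.KnownSimple.Leech
open Cfsg.Agent.Lib.KnownSimple Cfsg.Agent.Lib.KnownSimple.AutRigid Cfsg.Agent.Lib.KnownSimple.Pres
open Cfsg.Agent.Lib.KnownSimple.MultC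


abbrev d : ℕ := 4
abbrev N0 : ℕ := 280
theorem hP : IsPres d v (stdRels S) := Cfsg.Agent.Lib.KnownSimple.MultM.U43L.hPU
set_option maxHeartbeats 0 in
theorem hok : ∀ r ∈ stdRels S, ∀ l ∈ r, l < 2 * d := words_of_chk (by decide +kernel)
set_option maxHeartbeats 0 in
set_option maxRecDepth 100000 in
theorem hCN : chkCoset Cfsg.Agent.Lib.KnownSimple.MultM.U43L.τN d N0 = true := by decide +kernel
/-- The natural table. -/
noncomputable def CN : Coset d N0 := mkCoset Cfsg.Agent.Lib.KnownSimple.MultM.U43L.τN hCN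
/-- The table. -/
noncomputable abbrev τN : ℕ → ℕ → ℕ := Cfsg.Agent.Lib.KnownSimple.MultM.U43L.τN
/-- The natural representation. -/
noncomputable def ρ0 : P →* Equiv.Perm (Fin N0) := Cfsg.Agent.Lib.KnownSimple.MultM.U43L.ρ0.comp Cfsg.Agent.Lib.KnownSimple.MultM.U43L.fU
theorem hρ0 : ∀ x, x < d → ρ0 (v x) = (CN.p x)⁻¹ := by
  intro x hx
  have hx' : x < Cfsg.Agent.Lib.KnownSimple.MultM.U43L.d := by
    have : d ≤ Cfsg.Agent.Lib.KnownSimple.MultM.U43L.d := by decide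
    omega
  show Cfsg.Agent.Lib.KnownSimple.MultM.U43L.ρ0 (Cfsg.Agent.Lib.KnownSimple.MultM.U43L.fU (v x)) = _
  rw [Cfsg.Agent.Lib.KnownSimple.MultM.U43L.hfU x hx, Cfsg.Agent.Lib.KnownSimple.MultM.U43L.hρ0 x hx']
  congr 1
  ext i
  rw [Coset.p_val _ hx', Coset.p_val _ hx]
  rfl
theorem hρ0inj : Function.Injective ρ0 := Cfsg.Agent.Lib.KnownSimple.MultM.U43L.hρ0inj.comp Cfsg.Agent.Lib.KnownSimple.MultM.U43L.finj
theorem card_P : Nat.card P = 6048 := Cfsg.Agent.Lib.KnownSimple.MultM.U43L.hcardU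

end Cfsg.Agent.Lib.KnownSimple.MultM.U33H
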