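import Cfsg.Agent.Lib.KnownSimple.MultM.U33H.Def
import Cfsg.Agent.Lib.KnownSimple.Pres.Out

/-!
# The presentation
-/

set_option autoImplicit false

namespace Cfsg.Agent.Lib.KnownSimple.MultM.U33H

open Cfsg Cfsg.Spor Cfsg.Agent.Lib.Compute Cfsg.Agent.Lib.KnownSimple.PE Cfsg.Agent.Lib.KnownSimple.Leech
open Cfsg.Agent.Lib.KnownSimple Cfsg.Agent.Lib.KnownSimple.AutRigid Cfsg.Agent.Lib.KnownSimple.Pres

/-- The presentation on involutions. -/
noncomputable def S : StdPres edges extra where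
  gs := [.a, .b, .c, .d]
  hall := by intro x; cases x <;> decide
  hnd := by decide
  hnodes := by decide
  extraW := [[0, 1, 0, 1, 2, 0, 2, 1, 0, 1, 2, 0, 2], [0, 1, 0, 1, 0, 2, 1, 0, 2, 1, 2, 0, 1, 2], [0, 1, 2, 0, 1, 2, 1, 0, 2, 1, 0, 2, 0, 2], [0, 2, 3, 2, 0, 2, 3, 2, 0, 2, 3, 2], [0, 1, 2, 3, 2, 3, 2, 1, 0, 3, 0, 3], [0, 1, 0, 1, 3, 0, 2, 1, 2, 1, 2, 0, 3]]
  hextra := by decide +kernel

/-- The group. -/
abbrev P : Type := PJ
/-- The letters of the group. -/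
noncomputable abbrev v : ℕ → P := S.L.v

end Cfsg.Agent.Lib.KnownSimple.MultM.U33H
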